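import Mathlib
import Cfsg.Agent.Lib.Helper56.TC
import Cfsg.Agent.Lib.Helper56.TCFast
import Cfsg.Agent.Lib.Helper19.L37B.DA0
set_option autoImplicit false
set_option maxRecDepth 1000000

namespace Cfsg.Agent.Lib.Helper19.L37B

open Cfsg.Agent.Lib.Helper56.TC Cfsg.Agent.Lib.Helper56.TC.Tabs

noncomputable def nA : List (List ℕ) := [nA0]

noncomputable def fA : List (List ℕ) := [fA0]

/-- The certificate data. -/
noncomputable def T : Tabs where
  K := 5
  N := 57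
  N' := 86
  INF := 237
  fuel := 2
  inv := fun l => l
  tg := slotFld2 nA 108 151 2854495385411919762116571938898990272765493247 5 24 31 127 (fun _ => 0)
  rk := slotFld2 nA 108 151 2854495385411919762116571938898990272765493247 5 24 38 255
    (fun x => Nat.rec (motive := fun _ => ℕ) 0 (fun _ _ => 237) x)
  jc := slotFld2 nA 108 151 2854495385411919762116571938898990272765493247 5 24 46 511
    (fun x => Nat.rec (motive := fun _ => ℕ) 3 (fun _ _ => 0) x)
  dd := fldA nA 108 151 2854495385411919762116571938898990272765493247 0 15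
  dl := fldA nA 108 151 2854495385411919762116571938898990272765493247 4 7
  qj := fldA nA 108 151 2854495385411919762116571938898990272765493247 7 511
  mp := fldA nA 108 151 2854495385411919762116571938898990272765493247 16 127
  mt := fldA nA 108 151 2854495385411919762116571938898990272765493247 23 255
  tb := tbFld2 fA 334 49 562949953421311 6 19 63
  rels1 := [[0, 1, 0, 1, 0, 1],
    [0, 2, 0, 2],
    [1, 2, 1, 2, 1, 2],
    [0, 1, 3, 0, 1, 3],
    [0, 2, 3, 0, 2, 3],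
    [0, 3, 0, 3, 0, 3],
    [3, 4, 3, 4],
    [0, 1, 4, 0, 1, 4],
    [0, 4, 0, 4, 0, 4],
    [0, 2, 3, 4, 0, 2, 4, 0, 2, 4, 0, 2, 4],
    [0, 2, 4, 0, 2, 4, 0, 2, 4, 0, 2, 4, 3],
    [0, 2, 4, 0, 2, 4, 0, 2, 4, 0, 2, 4, 0, 2, 4, 0, 2, 4, 0, 2, 4, 0, 2, 4]]
  subs := [[3, 1, 3],
    [2, 4, 1, 4, 0]]
  rx := [[0, 1, 0, 1, 0, 1],
    [0, 2, 0, 2],
    [1, 2, 1, 2, 1, 2],
    [0, 1, 3, 0, 1, 3],
    [0, 2, 3, 0, 2, 3],
    [0, 3, 0, 3, 0, 3],
    [3, 4, 3, 4],
    [0, 1, 4, 0, 1, 4],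
    [0, 4, 0, 4, 0, 4],
    [0, 2, 3, 4, 0, 2, 4, 0, 2, 4, 0, 2, 4],
    [0, 2, 4, 0, 2, 4, 0, 2, 4, 0, 2, 4, 3],
    [0, 2, 4, 0, 2, 4, 0, 2, 4, 0, 2, 4, 0, 2, 4, 0, 2, 4, 0, 2, 4, 0, 2, 4],
    [3, 1, 3, 5],
    [2, 4, 1, 4, 0, 6]]
  RB := 25
  tpl := fldA fA 334 49 562949953421311 0 7
  tdep := fldA fA 334 49 562949953421311 3 15
  ol := fldA fA 334 49 562949953421311 7 1
  oc := fldA fA 334 49 562949953421311 8 1
  op := fldA fA 334 49 562949953421311 9 63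
  odep := fldA fA 334 49 562949953421311 15 15
  orep := fun c => Tabs.nth 0 [0, 1] c

end Cfsg.Agent.Lib.Helper19.L37B
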